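import Cfsg.Agent.Lib.PushUp.RankOne.PlanarSplit
import Cfsg.Agent.Lib.Amalgams.Qd
import Cfsg.Agent.Lib.Signalizer.CoprimeGeneration
import Cfsg.Agent.Lib.CoprimeAction.Glauberman

/-!
Rank one pushing up inside a maximal `p`-local subgroup: `G = Qd(q) × E`.
-/

set_option autoImplicit false
set_option linter.unusedSectionVars false
set_option linter.style.haveILetI false

namespace CfsgLib.PushUp.RankOne

open Cfsg
open scoped commutatorElement MatrixGroups Matrix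
open CfsgLib.ClassicalLinear (upS upS_coe upS_add)

variable {F : Type} [Field F]

local notation "M₂" => Matrix (Fin 2) (Fin 2) F
local notation "M₃" => Matrix (Fin 3) (Fin 3) F

theorem two_ne_zero_of_five_le (p : ℕ) [CharP F p] (hp5 : 5 ≤ p) : (2 : F) ≠ 0 := fun h => by
  have h' : ((2 : ℕ) : F) = 0 := by exact_mod_cast h
  rw [CharP.cast_eq_zero_iff F p] at h'
  have := Nat.le_of_dvd two_pos h'
  omega

namespace Split

variable {G : Type*} [Group G] [Finite G] {p : ℕ} [hp : Fact p.Prime] {Q S V Z N V₁ C D : Subgroup G}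
  {R : NatSection V Z F} {t : G} (hP : Planar p Q S V Z N R) (h : Split p Q R t V₁ C D)
include hP h

theorem psi_mul {v w : G} (hv : v ∈ V₁) (hw : w ∈ V₁) :
    R.ψ ⟨v * w, h.V₁_le (V₁.mul_mem hv hw)⟩ = R.ψ ⟨v, h.V₁_le hv⟩ + R.ψ ⟨w, h.V₁_le hw⟩ :=
  R.map_mul ⟨v, h.V₁_le hv⟩ ⟨w, h.V₁_le hw⟩

theorem psi_conj (g : G) {v : G} (hv : v ∈ V₁) :
    R.ψ ⟨g * v * g⁻¹, h.V₁_le (h.normV₁ g v hv)⟩ =
      ((R.ρ g : SL(2, F)) : M₂) *ᵥ R.ψ ⟨v, h.V₁_le hv⟩ :=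
  R.equiv g ⟨v, h.V₁_le hv⟩ _ rfl

theorem ext_V {v w : G} (hv : v ∈ V₁) (hw : w ∈ V₁)
    (e : R.ψ ⟨v, h.V₁_le hv⟩ = R.ψ ⟨w, h.V₁_le hw⟩) : v = w := by
  refine inv_mul_eq_one.1 (h.injV (v⁻¹ * w) (V₁.mul_mem (V₁.inv_mem hv) hw) ?_)
  rw [h.psi_mul hP (V₁.inv_mem hv) hw,
    show (⟨v⁻¹, h.V₁_le (V₁.inv_mem hv)⟩ : ↥V) = ⟨v, h.V₁_le hv⟩⁻¹ from rfl, R.map_inv, e,
    neg_add_cancel]

theorem ext_C {c c' : G} (hc : c ∈ C) (hc' : c' ∈ C) (e : R.ρ c = R.ρ c') : c = c' :=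
  inv_mul_eq_one.1 (h.injC _ (C.mul_mem (C.inv_mem hc) hc')
    (by rw [map_mul, map_inv, e, inv_mul_cancel]))

theorem rho_V {v : G} (hv : v ∈ V₁) : R.ρ v = 1 := (hP.kerρ v).2 (hP.V_le (h.V₁_le hv))

theorem le_S : Q ≤ S := fun a ha => (hP.upper a).2 ⟨0, by
  rw [(hP.kerρ a).2 ha, CfsgLib.SL2.upS_zero]⟩

theorem pow_V {v : G} (hv : v ∈ V₁) : v ^ p = 1 :=
  hP.powS v (h.le_S hP (hP.V_le (h.V₁_le hv)))

theorem inf_eq_one (h2 : (2 : F) ≠ 0) {v c : G} (hv : v ∈ V₁) (hc : c ∈ C) (hd : v * c ∈ D) :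
    c = 1 ∧ v = 1 := by
  have h1 : R.ρ c = 1 := by
    have := (hP.kerρ _).2 (h.D_le hd)
    rwa [map_mul, h.rho_V hP hv, one_mul] at this
  have hc1 := h.injC c hc h1
  refine ⟨hc1, h.injV v hv ?_⟩
  rw [hc1, mul_one] at hd
  have hvv : v⁻¹ = v := by rw [← h.inv v hv, h.fix v hd, mul_inv_cancel_right]
  have h3 := R.map_inv ⟨v, h.V₁_le hv⟩
  rw [show (⟨v, h.V₁_le hv⟩ : ↥V)⁻¹ = ⟨v, h.V₁_le hv⟩ from Subtype.ext hvv] at h3
  funext i
  have h4 := congrFun h3 i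
  rw [Pi.neg_apply] at h4
  exact (mul_eq_zero.1 (show (2 : F) * R.ψ ⟨v, h.V₁_le hv⟩ i = 0 by linear_combination h4)).resolve_left h2

theorem conj_D (g : G) {d : G} (hd : d ∈ D) : g * d * g⁻¹ ∈ D := by
  obtain ⟨v, hv, c, hc, d', hd', rfl⟩ := h.decomp g
  have h1 : d' * d * d'⁻¹ ∈ D := D.mul_mem (D.mul_mem hd' hd) (D.inv_mem hd')
  have e : v * c * d' * d * (v * c * d')⁻¹ = v * (c * (d' * d * d'⁻¹) * c⁻¹) * v⁻¹ := by
    simp [mul_assoc]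
  rw [e, h.commCD c hc _ h1, mul_inv_cancel_right, h.commVD v hv _ h1, mul_inv_cancel_right]
  exact h1

theorem exists_qd (h2 : (2 : F) ≠ 0) : ∃ Φ : qdOver F →* G, Function.Injective Φ ∧
    (∀ a, a ∈ Φ.range ↔ ∃ v ∈ V₁, ∃ c ∈ C, a = v * c) := by
  choose vl hvl hψ using h.surjV
  choose cl hcl hρ using h.surjC
  let w : qdOver F → Fin 2 → F := fun M => ![((M : SL(3, F)) : M₃) 0 2, ((M : SL(3, F)) : M₃) 1 2]
  have hw : ∀ A c f, w (CfsgLib.Amalgams.Qd.aff A c f) = ![c, f] := fun A c f => by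
    simp [w, CfsgLib.Amalgams.Qd.coe_aff]
  let Φ : qdOver F →* G := MonoidHom.mk' (fun M => vl (w M) * cl (CfsgLib.Amalgams.Qd.lin M))
    fun M M' => by
      obtain ⟨A, a, b, rfl⟩ := CfsgLib.Amalgams.Qd.exists_eq_aff M
      obtain ⟨A', a', b', rfl⟩ := CfsgLib.Amalgams.Qd.exists_eq_aff M'
      rw [CfsgLib.Amalgams.Qd.aff_mul]
      simp only [hw, CfsgLib.Amalgams.Qd.lin_aff]
      have hx := h.normV₁ (cl A) _ (hvl ![a', b'])
      have e : vl ![a, b] * cl A * (vl ![a', b'] * cl A') =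
          vl ![a, b] * (cl A * vl ![a', b'] * (cl A)⁻¹) * (cl A * cl A') := by simp [mul_assoc]
      rw [e]
      congr 1
      · refine h.ext_V hP (hvl _) (V₁.mul_mem (hvl _) hx) ?_
        rw [h.psi_mul hP (hvl _) hx, h.psi_conj hP (cl A) (hvl _), hψ, hψ, hψ, hρ]
        funext i
        fin_cases i <;> simp [Matrix.mulVec, dotProduct, Fin.sum_univ_two] <;> ring
      · exact h.ext_C hP (hcl _) (C.mul_mem (hcl _) (hcl _)) (by rw [map_mul, hρ, hρ, hρ])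
  have hΦ : ∀ M, Φ M = vl (w M) * cl (CfsgLib.Amalgams.Qd.lin M) := fun M => rfl
  refine ⟨Φ, (injective_iff_map_eq_one Φ).2 fun M hM => ?_, fun a => ⟨?_, ?_⟩⟩
  · rw [hΦ] at hM
    obtain ⟨hc1, hv1⟩ := h.inf_eq_one hP h2 (hvl _) (hcl _) (hM ▸ D.one_mem)
    obtain ⟨A, a, b, rfl⟩ := CfsgLib.Amalgams.Qd.exists_eq_aff M
    rw [hw] at hv1
    rw [CfsgLib.Amalgams.Qd.lin_aff] at hc1
    have hA : A = 1 := by rw [← hρ A, hc1, map_one]
    have hab : (![a, b] : Fin 2 → F) = 0 := by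
      rw [← hψ ![a, b], show (⟨vl ![a, b], h.V₁_le (hvl _)⟩ : ↥V) = 1 from Subtype.ext hv1, R.map_one]
    have ha : a = 0 := by simpa using congrFun hab 0
    have hb : b = 0 := by simpa using congrFun hab 1
    rw [hA, ha, hb, CfsgLib.Amalgams.Qd.aff_one]
  · rintro ⟨M, rfl⟩
    exact ⟨_, hvl _, _, hcl _, hΦ M⟩
  · rintro ⟨v, hv, c, hc, rfl⟩
    refine ⟨CfsgLib.Amalgams.Qd.aff (R.ρ c) (R.ψ ⟨v, h.V₁_le hv⟩ 0) (R.ψ ⟨v, h.V₁_le hv⟩ 1), ?_⟩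
    rw [hΦ, hw, CfsgLib.Amalgams.Qd.lin_aff]
    congr 1
    · refine h.ext_V hP (hvl _) hv ?_
      rw [hψ]
      funext i; fin_cases i <;> rfl
    · exact h.ext_C hP (hcl _) hc (hρ _)

omit [Finite G] hp hP h in
/-- Coordinates of an element of `S` centralizing `D`. -/
def Co (R : NatSection V Z F) (V₁ C D : Subgroup G) (a : G) (τ η : F) : Prop :=
  ∃ v, v ∈ V₁ ∧ ∃ c ∈ C, ∃ d ∈ D, (∀ g : G, d * g = g * d) ∧ a = v * c * d ∧ R.ρ c = upS τ ∧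
    ∃ hv : v ∈ V, R.ψ ⟨v, hv⟩ 1 = η

theorem exists_co {a : G} (ha : a ∈ S) (hcen : ∀ e ∈ D, a * e = e * a) :
    ∃ τ η, Co R V₁ C D a τ η := by
  obtain ⟨τ, hτ⟩ := (hP.upper a).1 ha
  obtain ⟨v, hv, c, hc, d, hd, rfl⟩ := h.decomp a
  have hde : ∀ e ∈ D, d * e = e * d := fun e he => by
    have h1 : v * c * d * e = e * (v * c * d) := hcen e he
    have h2 : e * (v * c) = v * c * e := by
      rw [← mul_assoc, ← h.commVD v hv e he, mul_assoc, ← h.commCD c hc e he, ← mul_assoc]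
    rw [← mul_assoc, h2] at h1
    exact mul_left_cancel (a := v * c) (by simpa only [mul_assoc] using h1)
  refine ⟨τ, _, v, hv, c, hc, d, hd, fun g => ?_, rfl, ?_, h.V₁_le hv, rfl⟩
  · obtain ⟨v', hv', c', hc', d', hd', rfl⟩ := h.decomp g
    calc d * (v' * c' * d') = (d * v') * c' * d' := by simp [mul_assoc]
      _ = v' * (d * c') * d' := by rw [← h.commVD v' hv' d hd]; simp [mul_assoc]
      _ = v' * c' * (d * d') := by rw [← h.commCD c' hc' d hd]; simp [mul_assoc]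
      _ = v' * c' * d' * d := by rw [hde d' hd']; simp [mul_assoc]
  · rw [map_mul, map_mul, h.rho_V hP hv, (hP.kerρ d).2 (h.D_le hd), one_mul, mul_one] at hτ
    exact hτ

theorem co_comm {a b : G} {τ η τ' η' : F} (ha : Co R V₁ C D a τ η) (hb : Co R V₁ C D b τ' η') :
    a * b = b * a ↔ τ * η' = τ' * η := by
  obtain ⟨v, hv, c, hc, d, hd, hdz, rfl, hcρ, hvV, hη⟩ := ha
  obtain ⟨v', hv', c', hc', d', hd', hdz', rfl, hcρ', hvV', hη'⟩ := hb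
  have hcc : c * c' = c' * c := h.ext_C hP (C.mul_mem hc hc') (C.mul_mem hc' hc) (by
    rw [map_mul, map_mul, hcρ, hcρ', ← upS_add, ← upS_add, add_comm])
  set x := v * (c * v' * c⁻¹) with hx
  set y := v' * (c' * v * c'⁻¹) with hy
  have hxm : x ∈ V₁ := V₁.mul_mem hv (h.normV₁ c v' hv')
  have hym : y ∈ V₁ := V₁.mul_mem hv' (h.normV₁ c' v hv)
  have e1 : v * c * d * (v' * c' * d') = x * (c * c') * (d * d') := by
    rw [mul_assoc (v * c) d, ← mul_assoc d, hdz (v' * c')]; simp [hx, mul_assoc]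
  have e2 : v' * c' * d' * (v * c * d) = y * (c * c') * (d * d') := by
    rw [mul_assoc (v' * c') d', ← mul_assoc d', hdz' (v * c), hdz d']; simp [hy, hcc, mul_assoc]
  rw [e1, e2, mul_left_inj, mul_left_inj]
  have hψx : R.ψ ⟨x, h.V₁_le hxm⟩ = R.ψ ⟨v, h.V₁_le hv⟩ +
      ((upS τ : SL(2, F)) : M₂) *ᵥ R.ψ ⟨v', h.V₁_le hv'⟩ := by
    rw [← hcρ, ← h.psi_conj hP c hv']; exact h.psi_mul hP hv (h.normV₁ c v' hv')
  have hψy : R.ψ ⟨y, h.V₁_le hym⟩ = R.ψ ⟨v', h.V₁_le hv'⟩ +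
      ((upS τ' : SL(2, F)) : M₂) *ᵥ R.ψ ⟨v, h.V₁_le hv⟩ := by
    rw [← hcρ', ← h.psi_conj hP c' hv]; exact h.psi_mul hP hv' (h.normV₁ c' v hv)
  constructor
  · intro e
    have e' : R.ψ ⟨x, h.V₁_le hxm⟩ 0 = R.ψ ⟨y, h.V₁_le hym⟩ 0 := by
      rw [show (⟨x, h.V₁_le hxm⟩ : ↥V) = ⟨y, h.V₁_le hym⟩ from Subtype.ext e]
    rw [hψx, hψy] at e'
    simp [Matrix.mulVec, dotProduct, Fin.sum_univ_two, upS_coe, hη, hη'] at e'
    linear_combination e'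
  · intro e
    refine h.ext_V hP hxm hym ?_
    rw [hψx, hψy]
    funext i
    fin_cases i
    · simp [Matrix.mulVec, dotProduct, Fin.sum_univ_two, upS_coe, hη, hη']; linear_combination e
    · simp [Matrix.mulVec, dotProduct, Fin.sum_univ_two, upS_coe, hη, hη']; ring

/-- Two commuting sets in `S` centralizing `D` cannot both be nonabelian. -/
theorem comm_of_comm {a₁ a₂ b₁ b₂ : G} (ha : ∀ a ∈ ({a₁, a₂, b₁, b₂} : Set G), a ∈ S ∧ ∀ e ∈ D, a * e = e * a)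
    (hne : a₁ * a₂ ≠ a₂ * a₁) (h₁₁ : a₁ * b₁ = b₁ * a₁) (h₂₁ : a₂ * b₁ = b₁ * a₂) :
    b₁ * b₂ = b₂ * b₁ := by
  have hco : ∀ a ∈ ({a₁, a₂, b₁, b₂} : Set G), ∃ τ η, Co R V₁ C D a τ η := fun a hm =>
    h.exists_co hP (ha a hm).1 (ha a hm).2
  obtain ⟨τ₁, η₁, c₁⟩ := hco a₁ (by simp)
  obtain ⟨τ₂, η₂, c₂⟩ := hco a₂ (by simp)
  obtain ⟨τ, η, cb⟩ := hco b₁ (by simp)
  obtain ⟨τ', η', cb'⟩ := hco b₂ (by simp)
  have hd : τ₁ * η₂ - τ₂ * η₁ ≠ 0 := fun e => hne ((h.co_comm hP c₁ c₂).2 (sub_eq_zero.1 e))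
  have e₁ := (h.co_comm hP c₁ cb).1 h₁₁
  have e₂ := (h.co_comm hP c₂ cb).1 h₂₁
  have hη : η = 0 := (mul_eq_zero.1 (show (τ₁ * η₂ - τ₂ * η₁) * η = 0 by
    linear_combination η₂ * e₁ - η₁ * e₂)).resolve_left hd
  have hτ : τ = 0 := (mul_eq_zero.1 (show (τ₁ * η₂ - τ₂ * η₁) * τ = 0 by
    linear_combination τ₂ * e₁ - τ₁ * e₂)).resolve_left hd
  exact (h.co_comm hP cb cb').2 (by rw [hη, hτ, zero_mul, mul_zero])

/-- A nonabelian set centralizing `D`, invariant under the stabilizer of `S`, contains `V₁`. -/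
theorem V₁_le_of_invariant [CharP F p] (hp5 : 5 ≤ p) (A : Subgroup G) (hAS : A ≤ S)
    (hAD : ∀ a ∈ A, ∀ e ∈ D, a * e = e * a) (hnc : ∃ a ∈ A, ∃ b ∈ A, a * b ≠ b * a)
    (hinv : ∀ g, (∀ s ∈ S, g * s * g⁻¹ ∈ S) → ∀ a ∈ A, g * a * g⁻¹ ∈ A) : V₁ ≤ A := by
  have hnS : ∀ g, ((R.ρ g : SL(2, F)) : M₂) 1 0 = 0 → ∀ s ∈ S, g * s * g⁻¹ ∈ S := fun g hg s hs => by
    obtain ⟨τ, hτ⟩ := (hP.upper s).1 hs
    exact (hP.upper _).2 ⟨_, by rw [map_mul, map_mul, map_inv, hτ, conj_upS hg]⟩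
  -- an element with nonzero second coordinate
  obtain ⟨v₀, hv₀, hv₀A, hη₀⟩ : ∃ v, ∃ hv : v ∈ V₁, v ∈ A ∧ R.ψ ⟨v, h.V₁_le hv⟩ 1 ≠ 0 := by
    obtain ⟨a, ha, b, hb, hab⟩ := hnc
    obtain ⟨τ₁, η₁, c₁⟩ := h.exists_co hP (hAS ha) (hAD a ha)
    obtain ⟨τ₂, η₂, c₂⟩ := h.exists_co hP (hAS hb) (hAD b hb)
    suffices ∀ a ∈ A, ∀ τ η, Co R V₁ C D a τ η → η ≠ 0 →
        ∃ v, ∃ hv : v ∈ V₁, v ∈ A ∧ R.ψ ⟨v, h.V₁_le hv⟩ 1 ≠ 0 by
      by_cases h1 : η₁ = 0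
      · refine this b hb τ₂ η₂ c₂ fun h2 => hab ((h.co_comm hP c₁ c₂).2 ?_)
        rw [h1, h2, mul_zero, mul_zero]
      · exact this a ha τ₁ η₁ c₁ h1
    intro a ha τ η hco hη
    obtain ⟨v, hv, c, hc, d, hd, hdz, rfl, hcρ, hvV, hψ⟩ := hco
    refine ⟨v, hv, ?_, hψ.symm ▸ hη⟩
    have ht := hinv t (hnS t (by rw [h.rho_t]; rfl)) _ ha
    have hct : t * c * t⁻¹ = c := h.ext_C hP (C.mul_mem (C.mul_mem h.t_mem hc) (C.inv_mem h.t_mem)) hc (by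
      rw [map_mul, map_mul, map_inv, h.rho_t, negS_comm, mul_inv_cancel_right])
    have e : t * (v * c * d) * t⁻¹ = v⁻¹ * c * d := by
      rw [← conj_mul, ← conj_mul, h.inv v hv, hct, ← hdz t, mul_inv_cancel_right]
    rw [e] at ht
    have h2 : v * v ∈ A := by
      have h3 := A.mul_mem ha (A.inv_mem ht)
      simpa [mul_assoc] using h3
    obtain ⟨l, hl⟩ := hp.out.odd_of_ne_two (by omega)
    have e2 : v = (v * v) ^ (l + 1) := by
      rw [← pow_two, ← pow_mul, show 2 * (l + 1) = p + 1 by omega, pow_succ, h.pow_V hP hv, one_mul]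
    rw [e2]; exact A.pow_mem h2 _
  set η₀ := R.ψ ⟨v₀, h.V₁_le hv₀⟩ 1 with hη₀'
  -- the first axis
  have hax : ∀ v (hv : v ∈ V₁), R.ψ ⟨v, h.V₁_le hv⟩ 1 = 0 → v ∈ A := fun v hv h0 => by
    obtain ⟨g, hg, hgρ⟩ := h.surjC (upS (R.ψ ⟨v, h.V₁_le hv⟩ 0 / η₀))
    have h1 := hinv g (hnS g (by rw [hgρ, upS_coe]; rfl)) v₀ hv₀A
    have h2 := h.normV₁ g v₀ hv₀
    have e : g * v₀ * g⁻¹ = v * v₀ := h.ext_V hP h2 (V₁.mul_mem hv hv₀) (by
      rw [h.psi_conj hP g hv₀, h.psi_mul hP hv hv₀, hgρ]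
      funext i
      fin_cases i
      · simp [Matrix.mulVec, dotProduct, Fin.sum_univ_two, upS_coe]
        rw [← hη₀', div_mul_cancel₀ _ hη₀]; ring
      · simp [Matrix.mulVec, dotProduct, Fin.sum_univ_two, upS_coe, h0])
    have h3 := A.mul_mem (e ▸ h1) (A.inv_mem hv₀A)
    simpa using h3
  intro v hv
  by_cases h0 : R.ψ ⟨v, h.V₁_le hv⟩ 1 = 0
  · exact hax v hv h0
  · set η := R.ψ ⟨v, h.V₁_le hv⟩ 1 with hη
    obtain ⟨g, hg, hgρ⟩ := h.surjC (diagS (η₀ / η) (div_ne_zero hη₀ h0))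
    have h1 := hinv g (hnS g (by rw [hgρ, diagS_coe]; rfl)) v₀ hv₀A
    have h2 := h.normV₁ g v₀ hv₀
    have h3 : v * (g * v₀ * g⁻¹)⁻¹ ∈ A := hax _ (V₁.mul_mem hv (V₁.inv_mem h2)) (by
      rw [h.psi_mul hP hv (V₁.inv_mem h2),
        show (⟨(g * v₀ * g⁻¹)⁻¹, h.V₁_le (V₁.inv_mem h2)⟩ : ↥V) = ⟨_, h.V₁_le h2⟩⁻¹ from rfl,
        R.map_inv, h.psi_conj hP g hv₀, hgρ]
      simp [Matrix.mulVec, dotProduct, Fin.sum_univ_two, diagS_coe, ← hη₀', ← hη]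
      field_simp
      ring)
    have h4 := A.mul_mem h3 h1
    simpa [mul_assoc] using h4

end Split

/-- Inside a maximal `p`-local subgroup the trivial part is abelian. -/
theorem Split.comm_of_local {H : Type*} [Group H] [Finite H] {p : ℕ} [hp : Fact p.Prime] {G : Subgroup H}
    {Q S V Z N V₁ C D : Subgroup ↥G} {R : NatSection V Z F} {t : ↥G} [CharP F p] (hp5 : 5 ≤ p)
    [Q.Characteristic] (hP : Planar p Q S V Z N R) (h : Split p Q R t V₁ C D)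
    (hmax : ∀ R : Subgroup H, IsPGroup p ↥R → R ≠ ⊥ → G ≤ Subgroup.normalizer (R : Set H) →
      Subgroup.normalizer (R : Set H) = G)
    (hN : ¬ Subgroup.normalizer ((S.map G.subtype : Subgroup H) : Set H) ≤ G) :
    ∀ a ∈ D, ∀ b ∈ D, a * b = b * a := by
  have h2 : (2 : F) ≠ 0 := two_ne_zero_of_five_le p hp5
  have hQS : Q ≤ S := h.le_S hP
  have hDS : D ≤ S := h.D_le.trans hQS
  set SH := S.map G.subtype
  have hSHG : SH ≤ G := Subgroup.map_subtype_le S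
  set Nm := Subgroup.normalizer (SH : Set H)
  have hxS : ∀ {x}, x ∈ Nm → ∀ a ∈ SH, x * a * x⁻¹ ∈ SH ∧ x⁻¹ * a * x ∈ SH := fun {x} hx a ha =>
    ⟨(Subgroup.mem_normalizer_iff.1 hx a).1 ha, by
      simpa using (Subgroup.mem_normalizer_iff.1 (Nm.inv_mem hx) a).1 ha⟩
  -- normalizers of normal `p`-subgroups of `G`
  have hloc : ∀ A : Subgroup ↥G, A.Normal → A ≤ S → A ≠ ⊥ →
      Subgroup.normalizer ((A.map G.subtype : Subgroup H) : Set H) = G := fun A hA hAS hne => by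
    refine hmax _ ((hP.pgroup.to_le hAS).map _) (fun e => hne ?_) fun g hg => ?_
    · rwa [Subgroup.map_eq_bot_iff_of_injective _ G.subtype_injective] at e
    · refine CfsgLib.CoprimeAction.mem_normalizer_of_conj_mem ?_
      rintro _ ⟨a, ha, rfl⟩
      exact ⟨_, hA.conj_mem a ha ⟨g, hg⟩, rfl⟩
  have hDn : D.Normal := ⟨fun d hd g => h.conj_D hP g hd⟩
  set DH := D.map G.subtype
  have hDHS : DH ≤ SH := Subgroup.map_mono hDS
  have hDG : ∀ g ∈ G, ∀ d ∈ DH, g * d * g⁻¹ ∈ DH := by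
    rintro g hg _ ⟨d, hd, rfl⟩
    exact ⟨_, hDn.conj_mem d hd ⟨g, hg⟩, rfl⟩
  have hV₁ : V₁.Normal := ⟨fun v hv g => h.normV₁ g v hv⟩
  have hV₁S : V₁ ≤ S := fun v hv => hQS (hP.V_le (h.V₁_le hv))
  have hV₁ne : V₁ ≠ ⊥ := fun e => by
    obtain ⟨v, hv, hψ⟩ := h.surjV ![1, 0]
    have hv1 : v = 1 := Subgroup.mem_bot.1 (e ▸ hv)
    rw [show (⟨v, h.V₁_le hv⟩ : ↥V) = 1 from Subtype.ext hv1, R.map_one] at hψ
    simpa using congrFun hψ 0
  have hQne : Q ≠ ⊥ := fun e => hV₁ne (eq_bot_iff.2 fun v hv => e ▸ hP.V_le (h.V₁_le hv))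
  -- (b) `D` commutes with its conjugate
  have hcomm : ∀ x ∈ Nm, x ∉ G → ∀ d ∈ DH, ∀ e ∈ DH,
      d * (x * e * x⁻¹) = (x * e * x⁻¹) * d := fun x hx hxG d hd e he => by
    set T := DH ⊓ DH.comap ((MulAut.conj x).symm.toMonoidHom) with hT
    have hmem : ∀ a, a ∈ T ↔ a ∈ DH ∧ x⁻¹ * a * x ∈ DH := fun a => by
      simp [hT, Subgroup.mem_inf]
    have hfix : ∀ (v : ↥G), (∀ d ∈ D, v * d = d * v) → ∀ a ∈ DH, (v : H) * a * (v : H)⁻¹ = a := by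
      rintro v hv _ ⟨d, hd, rfl⟩
      rw [mul_inv_eq_iff_eq_mul]
      exact congrArg Subtype.val (hv d hd)
    have hnorm : ∀ (g : ↥G), ∀ a ∈ T,
        (g : H) * a * (g : H)⁻¹ ∈ T ∧ (x * g * x⁻¹) * a * (x * g * x⁻¹)⁻¹ ∈ T := by
      intro g a ha
      obtain ⟨v, hv, c, hc, d', hd', rfl⟩ := h.decomp g
      obtain ⟨ha1, ha2⟩ := (hmem a).1 ha
      have hd'S : (d' : H) ∈ SH := hDHS ⟨d', hd', rfl⟩
      set b := (d' : H) * a * (d' : H)⁻¹ with hb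
      have hb1 : b ∈ DH := hDG _ d'.2 a ha1
      have hb2 : x⁻¹ * b * x ∈ DH := by
        have := hDG _ (hSHG (hxS hx _ hd'S).2) _ ha2
        simpa [hb, mul_assoc] using this
      set b' := (x * d' * x⁻¹) * a * (x * d' * x⁻¹)⁻¹ with hb'
      have hb1' : b' ∈ DH := hDG _ (hSHG (hxS hx _ hd'S).1) a ha1
      have hb2' : x⁻¹ * b' * x ∈ DH := by
        have := hDG _ d'.2 _ ha2
        simpa [hb', mul_assoc] using this
      refine ⟨?_, ?_⟩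
      · rw [show ((v * c * d' : ↥G) : H) * a * ((v * c * d' : ↥G) : H)⁻¹ =
            (v : H) * ((c : H) * b * (c : H)⁻¹) * (v : H)⁻¹ by simp [hb, mul_assoc],
          hfix c (h.commCD c hc) b hb1, hfix v (h.commVD v hv) b hb1]
        exact (hmem b).2 ⟨hb1, hb2⟩
      · rw [show x * ((v * c * d' : ↥G) : H) * x⁻¹ * a * (x * ((v * c * d' : ↥G) : H) * x⁻¹)⁻¹ =
            x * ((v : H) * ((c : H) * (x⁻¹ * b' * x) * (c : H)⁻¹) * (v : H)⁻¹) * x⁻¹ by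
            simp [hb', mul_assoc],
          hfix c (h.commCD c hc) _ hb2', hfix v (h.commVD v hv) _ hb2']
        simpa [mul_assoc] using (hmem b').2 ⟨hb1', hb2'⟩
    have hTbot : T = ⊥ := by
      by_contra hne
      have hTG := hmax T ((hP.pgroup.map G.subtype).to_le (inf_le_left.trans hDHS)) hne
        fun g hg => CfsgLib.CoprimeAction.mem_normalizer_of_conj_mem fun a ha => (hnorm ⟨g, hg⟩ a ha).1
      have hxG' : ∀ g ∈ G, x * g * x⁻¹ ∈ G := fun g hg => hTG.le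
        (CfsgLib.CoprimeAction.mem_normalizer_of_conj_mem fun a ha => (hnorm ⟨g, hg⟩ a ha).2)
      have h3 := CfsgLib.Signalizer.CoprimeGen.le_normalizer_map_of_characteristic Q
        (CfsgLib.CoprimeAction.mem_normalizer_of_conj_mem hxG')
      rw [hloc Q hP.normQ hQS hQne] at h3
      exact hxG h3
    have hxe : x * e * x⁻¹ ∈ SH := (hxS hx _ (hDHS he)).1
    have h1 : d * (x * e * x⁻¹) * d⁻¹ * (x * e * x⁻¹)⁻¹ ∈ T := (hmem _).2 ⟨by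
        have := DH.mul_mem hd (hDG _ (hSHG hxe) _ (DH.inv_mem hd))
        simpa [mul_assoc] using this, by
        have := DH.mul_mem (hDG _ (hSHG (hxS hx _ (hDHS hd)).2) _ he) (DH.inv_mem he)
        simpa [mul_assoc] using this⟩
    rw [hTbot, Subgroup.mem_bot] at h1
    exact mul_inv_eq_iff_eq_mul.1 (mul_inv_eq_one.1 h1)
  by_contra hnc
  push Not at hnc
  obtain ⟨d₁, hd₁, d₂, hd₂, hne⟩ := hnc
  obtain ⟨x, hx, hxG⟩ := SetLike.not_le_iff_exists.1 hN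
  -- the conjugate of `D` inside `G`
  let A : H → Subgroup ↥G := fun y => DH.comap ((MulAut.conj y).symm.toMonoidHom.comp G.subtype)
  have hmemA : ∀ y a, a ∈ A y ↔ y⁻¹ * (a : H) * y ∈ DH := fun y a => by simp [A]
  have hAS : ∀ y ∈ Nm, A y ≤ S := fun y hy a ha => by
    have h1 := (hxS hy _ (hDHS ((hmemA y a).1 ha))).1
    simp [mul_assoc] at h1
    obtain ⟨s, hs, e⟩ := h1
    rwa [← G.subtype_injective e]
  have hAD : ∀ y ∈ Nm, y ∉ G → ∀ a ∈ A y, ∀ e ∈ D, a * e = e * a := fun y hy hyG a ha e he => by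
    have h1 := hcomm y hy hyG (e : H) ⟨e, he, rfl⟩ _ ((hmemA y a).1 ha)
    simp only [mul_assoc, mul_inv_cancel_left, mul_inv_cancel, mul_one] at h1
    exact Subtype.ext h1.symm
  have hlift : ∀ y ∈ Nm, ∀ d ∈ D, ∃ a ∈ A y, (a : H) = y * (d : H) * y⁻¹ := fun y hy d hd => by
    refine ⟨⟨_, hSHG (hxS hy _ (hDHS ⟨d, hd, rfl⟩)).1⟩, (hmemA y _).2 ?_, rfl⟩
    simp only [mul_assoc, inv_mul_cancel_left, inv_mul_cancel, mul_one]
    exact ⟨d, hd, rfl⟩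
  have hncA : ∀ y ∈ Nm, ∃ a ∈ A y, ∃ b ∈ A y, a * b ≠ b * a := fun y hy => by
    obtain ⟨a, ha, ea⟩ := hlift y hy d₁ hd₁
    obtain ⟨b, hb, eb⟩ := hlift y hy d₂ hd₂
    refine ⟨a, ha, b, hb, fun e => hne (Subtype.ext ?_)⟩
    have h1 := congrArg Subtype.val e
    simp [ea, eb, mul_assoc] at h1
    simp only [← mul_assoc, mul_left_inj] at h1
    simpa using h1
  -- (d) two conjugates differ by an element of `G`
  have hdi : ∀ y ∈ Nm, y ∉ G → x⁻¹ * y ∈ G := fun y hy hyG => by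
    by_contra hz
    have hzN : x⁻¹ * y ∈ Nm := Nm.mul_mem (Nm.inv_mem hx) hy
    have hab : ∀ a ∈ A x, ∀ b ∈ A y, a * b = b * a := fun a ha b hb => by
      have h1 := hcomm _ hzN hz _ ((hmemA x a).1 ha) _ ((hmemA y b).1 hb)
      simp [mul_assoc] at h1
      simp only [← mul_assoc, mul_left_inj] at h1
      exact Subtype.ext h1
    obtain ⟨a₁, ha₁, a₂, ha₂, hnea⟩ := hncA x hx
    obtain ⟨b₁, hb₁, b₂, hb₂, hneb⟩ := hncA y hy
    refine hneb (h.comm_of_comm hP (a₁ := a₁) (a₂ := a₂) ?_ hnea (hab _ ha₁ _ hb₁) (hab _ ha₂ _ hb₁))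
    rintro a (rfl | rfl | rfl | rfl)
    exacts [⟨hAS x hx ha₁, hAD x hx hxG _ ha₁⟩, ⟨hAS x hx ha₂, hAD x hx hxG _ ha₂⟩,
      ⟨hAS y hy hb₁, hAD y hy hyG _ hb₁⟩, ⟨hAS y hy hb₂, hAD y hy hyG _ hb₂⟩]
  -- (e) the conjugate contains `V₁`
  have hV₁A : V₁ ≤ A x := h.V₁_le_of_invariant hP hp5 (A x) (hAS x hx) (hAD x hx hxG) (hncA x hx)
    fun g hg a ha => by
      have hgN : (g : H) ∈ Nm := CfsgLib.CoprimeAction.mem_normalizer_of_conj_mem (by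
        rintro _ ⟨s, hs, rfl⟩
        exact ⟨_, hg s hs, rfl⟩)
      have hgx : x⁻¹ * ((g : H) * x) ∈ G := hdi _ (Nm.mul_mem hgN hx) fun e => hxG (by
        simpa using G.mul_mem (G.inv_mem g.2) e)
      have := hDG _ hgx _ ((hmemA x a).1 ha)
      rw [hmemA]
      simpa [mul_assoc] using this
  -- (f) the conjugate of `t`
  have hu : ∀ v ∈ V₁, (x * t * x⁻¹) * (v : H) * (x * t * x⁻¹)⁻¹ = v := fun v hv => by
    obtain ⟨e, he, ee⟩ := (hmemA x v).1 (hV₁A hv)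
    have h1 : (v : H) = x * (e : H) * x⁻¹ := by
      rw [show (e : H) = x⁻¹ * v * x from ee]; simp [mul_assoc]
    have h2 : (t : H) * (e : H) = (e : H) * t := congrArg Subtype.val (h.fix e he)
    rw [h1, mul_inv_eq_iff_eq_mul]
    simp [mul_assoc]
    rw [← mul_assoc (t : H), h2, mul_assoc]
  have huG : x * t * x⁻¹ ∈ G := (hloc V₁ hV₁ hV₁S hV₁ne).le
    (CfsgLib.CoprimeAction.mem_normalizer_of_conj_mem (by
      rintro _ ⟨v, hv, rfl⟩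
      exact ⟨v, hv, (hu v hv).symm⟩))
  set s : ↥G := ⟨x * t * x⁻¹, huG⟩ with hs
  have hsρ : R.ρ s = 1 := by
    have hfixw : ∀ u, ((R.ρ s : SL(2, F)) : M₂) *ᵥ u = u := fun u => by
      obtain ⟨v, hv, rfl⟩ := h.surjV u
      rw [← h.psi_conj hP s hv]
      exact congrArg R.ψ (Subtype.ext (Subtype.ext (hu v hv)))
    apply Subtype.ext
    rw [Matrix.SpecialLinearGroup.coe_one]
    refine Matrix.ext fun i j => ?_
    have h1 := congrFun (hfixw (Pi.single j 1)) i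
    simpa [Matrix.mulVec, dotProduct, Fin.sum_univ_two, Matrix.one_apply, Pi.single_apply] using h1
  have hsS : s ∈ S := hQS ((hP.kerρ s).1 hsρ)
  have htt : t * t = 1 := h.injC _ (C.mul_mem h.t_mem h.t_mem) (by rw [map_mul, h.rho_t, negS_sq])
  have hss : s * s = 1 := Subtype.ext (by
    have h1 : (t : H) * t = 1 := congrArg Subtype.val htt
    simp [hs, mul_assoc]
    rw [← mul_assoc (t : H), h1]; simp)
  obtain ⟨l, hl⟩ := hp.out.odd_of_ne_two (by omega)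
  have hs1 : s = 1 := by
    have h1 := hP.powS s hsS
    rwa [hl, pow_succ, pow_mul, pow_two, hss, one_pow, one_mul] at h1
  have ht1 : t = 1 := Subtype.ext (by
    have h1 : x * (t : H) * x⁻¹ = 1 := congrArg Subtype.val hs1
    simpa using h1)
  have h3 := h.rho_t
  rw [ht1, map_one] at h3
  have h4 := congrFun (congrFun (congrArg (fun z : SL(2, F) => (z : M₂)) h3) 0) 0
  simp [negS] at h4
  exact h2 (by linear_combination h4)

end CfsgLib.PushUp.RankOne
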